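import Cfsg.Agent.Lib.H16.CE.S1687.T0

set_option autoImplicit false
set_option maxRecDepth 1000000

namespace Cfsg.Agent.H16.CE.S1687
open Cfsg.Agent.H16.CosetEnum
open Cfsg.Agent.H16.Enum (walk)

noncomputable section

theorem hb0 : bfsOK tt hwL 3510 692 (2 ^ 6) S0 = some V0 := by decide +kernel
theorem hc0' : closedOK tt hwL 3510 V0 = true := by decide +kernel
theorem hm0 : ((List.range 3510).filter (fun i => V0.testBit i)).length = 693 := by decide +kernel
theorem hb1 : bfsOK tt hwL 3510 2815 (2 ^ 1) S1 = some V1 := by decide +kernel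
theorem hc1' : closedOK tt hwL 3510 V1 = true := by decide +kernel
theorem hm1 : ((List.range 3510).filter (fun i => V1.testBit i)).length = 2816 := by decide +kernel

end

end Cfsg.Agent.H16.CE.S1687
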