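import Cfsg.Agent.Lib.H16.CE.S1687.T0

set_option autoImplicit false
set_option maxRecDepth 1000000

namespace Cfsg.Agent.H16.CE.S1687
open Cfsg.Agent.H16.CosetEnum
open Cfsg.Agent.H16.Enum (walk)

noncomputable section

theorem hr0 : rangeAll (allAt LL) 0 829 = true := by decide +kernel
theorem hr1 : rangeAll (allAt LL) 829 829 = true := by decide +kernel
theorem hr2 : rangeAll (allAt LL) 1658 829 = true := by decide +kernel
theorem hr3 : rangeAll (allAt LL) 2487 829 = true := by decide +kernel
theorem hr4 : rangeAll (allAt LL) 3316 194 = true := by decide +kernel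

end

end Cfsg.Agent.H16.CE.S1687
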